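import Mathlib
import Cfsg.Prelude.Def_GeometricClasses
import Cfsg.Agent.Lib.Helper77.Asch.Defs
import Cfsg.Agent.Lib.Helper5.AschC.Defs

/-! Ladder ASCHG: Aschbacher's theorem for SL_n(q), general n (definitions). -/

set_option autoImplicit false

namespace Cfsg.Agent.Lib.Helper38.AschG

open Cfsg Cfsg.Geo Cfsg.Agent.Lib.Helper77.Asch Cfsg.Agent.Lib.Helper5.AschC
open scoped MatrixGroups Matrix

variable {n : ℕ} {F : Type*} [Field F]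

/-- `H` lies in a member of one of the geometric classes (general dimension), in readable form:
the list `InGeoC` of helper5 (C1, C2, C3, tensor products `a ⊗ b` with `2 ≤ a, b`, C5, C8), or C6, or C7. -/
def InGeoG [Fintype F] (H : Subgroup (GL (Fin n) F)) : Prop :=
  InGeoC H ∨
  (∃ (r : ℕ) (R : Subgroup (GL (Fin n) F)), r ∣ n ∧ IsLinearSymplecticTypeData r R ∧
      H ≤ subgroupNormalizer R) ∨
  (∃ (m t : ℕ) (e : Fin n ≃ (Fin t → Fin m)) (P : GL (Fin n) F), 3 ≤ m ∧ 2 ≤ t ∧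
      H ≤ tensorWreathSubgroup m t e P)

theorem InGeoC.mono [Fintype F] {H K : Subgroup (GL (Fin n) F)} (h : H ≤ K) (hK : InGeoC K) : InGeoC H := by
  rcases hK with ⟨W, h0, h1, h2⟩ | ⟨t, m, D, h1, h2⟩ | ⟨r, A, h0, h1, h2⟩ | ⟨a, b, e, P, h0, h1, h2⟩ |
    ⟨F₀, r, P, h1, h2, h3⟩ | ⟨h0, Q, h1, h2⟩ | ⟨f, h1, h2⟩ | ⟨σ, f, h1, h2⟩
  · exact Or.inl ⟨W, h0, h1, h.trans h2⟩
  · exact Or.inr (Or.inl ⟨t, m, D, h1, h.trans h2⟩)
  · exact Or.inr (Or.inr (Or.inl ⟨r, A, h0, h1, h.trans h2⟩))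
  · exact Or.inr (Or.inr (Or.inr (Or.inl ⟨a, b, e, P, h0, h1, h.trans h2⟩)))
  · exact Or.inr (Or.inr (Or.inr (Or.inr (Or.inl ⟨F₀, r, P, h1, h2, h.trans h3⟩))))
  · exact Or.inr (Or.inr (Or.inr (Or.inr (Or.inr (Or.inl ⟨h0, Q, h1, h.trans h2⟩)))))
  · exact Or.inr (Or.inr (Or.inr (Or.inr (Or.inr (Or.inr (Or.inl ⟨f, h1, h.trans h2⟩))))))
  · exact Or.inr (Or.inr (Or.inr (Or.inr (Or.inr (Or.inr (Or.inr ⟨σ, f, h1, h.trans h2⟩))))))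

theorem InGeoG.mono [Fintype F] {H K : Subgroup (GL (Fin n) F)} (h : H ≤ K) (hK : InGeoG K) : InGeoG H := by
  rcases hK with h1 | ⟨r, R, h0, h1, h2⟩ | ⟨m, t, e, P, h0, h1, h2⟩
  · exact Or.inl (InGeoC.mono h h1)
  · exact Or.inr (Or.inl ⟨r, R, h0, h1, h.trans h2⟩)
  · exact Or.inr (Or.inr ⟨m, t, e, P, h0, h1, h.trans h2⟩)

end Cfsg.Agent.Lib.Helper38.AschG
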