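import Cfsg.Agent.Lib.Helper38.AschG.Defs
import Cfsg.Agent.Lib.Helper5.AschC.TQ2

/-! Ladder ASCHG, rung T22 (helper76). -/

set_option autoImplicit false

namespace Cfsg.Agent.Lib.Helper38.AschG

open Cfsg Cfsg.Geo
open Cfsg.Agent.Lib.Helper5.AschC (tq2_mem tq2_inv_mul tq2_mul_inv)
open scoped MatrixGroups Matrix Kronecker

variable {n : ℕ} {F : Type*} [Field F]

/-- the determinant form on `2 × 2` arrays. -/
def t22Q0 (w : Fin 2 × Fin 2 → F) : F := w (0, 0) * w (1, 1) - w (0, 1) * w (1, 0)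

/-- its polar form. -/
def t22B (x y : Fin 2 × Fin 2 → F) : F :=
  x (0, 0) * y (1, 1) + y (0, 0) * x (1, 1) - x (0, 1) * y (1, 0) - y (0, 1) * x (1, 0)

/-- the coordinates `v ↦ (P⁻¹ v) ∘ e.symm`. -/
def t22T (e : Fin n ≃ Fin 2 × Fin 2) (P : GL (Fin n) F) (v : Fin n → F) : Fin 2 × Fin 2 → F :=
  fun ab => (((P⁻¹ : GL (Fin n) F) : Matrix (Fin n) (Fin n) F) *ᵥ v) (e.symm ab)

theorem t22T_add (e : Fin n ≃ Fin 2 × Fin 2) (P : GL (Fin n) F) (u v : Fin n → F) :
    t22T e P (u + v) = t22T e P u + t22T e P v := by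
  funext ab
  simp [t22T, Matrix.mulVec_add]

theorem t22T_smul (e : Fin n ≃ Fin 2 × Fin 2) (P : GL (Fin n) F) (c : F) (v : Fin n → F) :
    t22T e P (c • v) = c • t22T e P v := by
  funext ab
  simp [t22T, Matrix.mulVec_smul]

theorem t22T_surj (e : Fin n ≃ Fin 2 × Fin 2) (P : GL (Fin n) F) (w : Fin 2 × Fin 2 → F) :
    t22T e P ((P : Matrix (Fin n) (Fin n) F) *ᵥ (w ∘ e)) = w := by
  funext ab
  simp only [t22T]
  rw [Matrix.mulVec_mulVec, tq2_inv_mul, Matrix.one_mulVec]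
  simp

theorem t22T_inj (e : Fin n ≃ Fin 2 × Fin 2) (P : GL (Fin n) F) (v : Fin n → F)
    (h : t22T e P v = 0) : v = 0 := by
  have h1 : ((P⁻¹ : GL (Fin n) F) : Matrix (Fin n) (Fin n) F) *ᵥ v = 0 := by
    funext i
    have := congrFun h (e i)
    simpa [t22T] using this
  have h2 := congrArg (fun u => (P : Matrix (Fin n) (Fin n) F) *ᵥ u) h1
  simp only [Matrix.mulVec_mulVec, tq2_mul_inv, Matrix.one_mulVec, Matrix.mulVec_zero] at h2
  exact h2

theorem t22_polar (e : Fin n ≃ Fin 2 × Fin 2) (P : GL (Fin n) F) (u v : Fin n → F) :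
    QuadraticMap.polar (fun v => t22Q0 (t22T e P v)) u v = t22B (t22T e P u) (t22T e P v) := by
  simp only [QuadraticMap.polar, t22T_add, t22Q0, t22B, Pi.add_apply]
  ring

theorem t22_act (e : Fin n ≃ Fin 2 × Fin 2) (P : GL (Fin n) F)
    (M : Matrix (Fin 2 × Fin 2) (Fin 2 × Fin 2) F) (v : Fin n → F) :
    t22T e P (((P : Matrix (Fin n) (Fin n) F) * Matrix.reindex e.symm e.symm M *
      ((P⁻¹ : GL (Fin n) F) : Matrix (Fin n) (Fin n) F)) *ᵥ v) = M *ᵥ t22T e P v := by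
  funext ab
  simp only [t22T]
  rw [Matrix.mulVec_mulVec, ← Matrix.mul_assoc, ← Matrix.mul_assoc, tq2_inv_mul, Matrix.one_mul,
    ← Matrix.mulVec_mulVec]
  simp only [Matrix.mulVec, dotProduct, Matrix.reindex_apply, Matrix.submatrix_apply,
    Equiv.symm_symm, Equiv.apply_symm_apply]
  rw [← Equiv.sum_comp e.symm]
  simp [t22T, Matrix.mulVec, dotProduct]

theorem t22_Q0_kron (a b : Matrix (Fin 2) (Fin 2) F) (w : Fin 2 × Fin 2 → F) :
    t22Q0 ((a ⊗ₖ b) *ᵥ w) = a.det * b.det * t22Q0 w := by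
  simp only [t22Q0, Matrix.mulVec, dotProduct, Fintype.sum_prod_type, Fin.sum_univ_two,
    Matrix.kroneckerMap_apply, Matrix.det_fin_two]
  ring

theorem tensor_two_two (e : Fin n ≃ Fin 2 × Fin 2) (P : GL (Fin n) F) :
    ∃ Q : (Fin n → F) → F, IsNondegenerateQuadraticForm Q ∧
      tensorProductSubgroup 2 2 e P ≤ quadSimilarityGroup Q := by
  refine ⟨fun v => t22Q0 (t22T e P v), ⟨?_, ⟨?_, ?_, ?_, ?_⟩, ?_⟩, ?_⟩
  · intro c v
    simp only [t22T_smul, t22Q0, Pi.smul_apply, smul_eq_mul]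
    ring
  · intro x y v
    simp only [t22_polar, t22T_add, t22B, Pi.add_apply]
    ring
  · intro c x v
    simp only [t22_polar, t22T_smul, t22B, Pi.smul_apply, smul_eq_mul]
    ring
  · intro v x y
    simp only [t22_polar, t22T_add, t22B, Pi.add_apply]
    ring
  · intro c v x
    simp only [t22_polar, t22T_smul, t22B, Pi.smul_apply, smul_eq_mul]
    ring
  · intro v hv
    have hTv : t22T e P v ≠ 0 := fun h => hv (t22T_inj e P v h)
    obtain ⟨x, hx⟩ : ∃ x, QuadraticMap.polar (fun v => t22Q0 (t22T e P v)) x v ≠ 0 := by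
      by_contra hcon
      push Not at hcon
      apply hTv
      have key : ∀ w : Fin 2 × Fin 2 → F, t22B w (t22T e P v) = 0 := by
        intro w
        have := hcon ((P : Matrix (Fin n) (Fin n) F) *ᵥ (w ∘ e))
        rwa [t22_polar, t22T_surj] at this
      have h00 := key (Pi.single (1, 1) 1)
      have h11 := key (Pi.single (0, 0) 1)
      have h01 := key (Pi.single (1, 0) 1)
      have h10 := key (Pi.single (0, 1) 1)
      simp [t22B] at h00 h11 h01 h10
      funext ⟨i, j⟩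
      fin_cases i <;> fin_cases j
      · exact h00
      · exact h01
      · exact h10
      · exact h11
    refine ⟨⟨x, hx⟩, ⟨x, ?_⟩⟩
    rw [QuadraticMap.polar_comm]
    exact hx
  · intro g hg
    obtain ⟨x, y, hxy⟩ := tq2_mem e P g hg
    refine ⟨Matrix.GeneralLinearGroup.det x * Matrix.GeneralLinearGroup.det y, fun v => ?_⟩
    rw [hxy]
    simp only [t22_act, t22_Q0_kron]
    simp

theorem quadSim_le_polarSim (Q : (Fin n → F) → F) :
    quadSimilarityGroup Q ≤ similarityGroup (QuadraticMap.polar Q) := by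
  rintro g ⟨c, hc⟩
  refine ⟨c, fun u v => ?_⟩
  simp only [QuadraticMap.polar, ← Matrix.mulVec_add, hc]
  ring

end Cfsg.Agent.Lib.Helper38.AschG
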