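import Cfsg.Agent.Lib.Helper38.AschG.Defs

/-! Ladder ASCHG, rung TPW (helper76). -/

set_option autoImplicit false

namespace Cfsg.Agent.Lib.Helper38.AschG

open Cfsg Cfsg.Geo
open scoped MatrixGroups Matrix Kronecker

variable {n : ℕ} {F : Type*} [Field F]

theorem tensor_le_wreath {a : ℕ} (e : Fin n ≃ Fin a × Fin a) (P : GL (Fin n) F) :
    tensorProductSubgroup a a e P ≤
      tensorWreathSubgroup a 2 (e.trans (finTwoArrowEquiv (Fin a)).symm) P := by
  intro g hg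
  obtain ⟨g1, hg1, rfl⟩ := hg
  obtain ⟨k, hk, rfl⟩ := hg1
  obtain ⟨x, y, hxy⟩ := hk
  refine ⟨_, ⟨glReindex (finTwoArrowEquiv (Fin a)).symm k, ?_, rfl⟩, ?_⟩
  · apply Subgroup.subset_closure
    left
    refine ⟨![x, y], fun u v => ?_⟩
    rw [Fin.prod_univ_two]
    change (k : Matrix (Fin a × Fin a) (Fin a × Fin a) F) (finTwoArrowEquiv (Fin a) u)
      (finTwoArrowEquiv (Fin a) v) = _
    rw [hxy]
    simp [Matrix.kroneckerMap_apply, finTwoArrowEquiv]
  · congr 1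

end Cfsg.Agent.Lib.Helper38.AschG
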