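import Cfsg.Agent.Lib.Helper38.AschG.MAIN
import Cfsg.Agent.Lib.Helper38.AschG.TPW
import Cfsg.Agent.Lib.Helper38.AschG.T22
import Cfsg.Agent.Lib.Helper5.AschC.SWAP

/-! Ladder ASCHG: from the readable list to `InLinearClass`. -/

set_option autoImplicit false

namespace Cfsg.Agent.Lib.Helper38.AschG

open Cfsg Cfsg.Geo Cfsg.Agent.Lib.Helper77.Asch Cfsg.Agent.Lib.Helper5.AschC
open scoped MatrixGroups Matrix

variable {n : ℕ} {F : Type*} [Field F]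

theorem symp_class [Fintype F] (h3 : 3 ≤ n) (f : (Fin n → F) → (Fin n → F) → F) (hf : IsSymplecticForm f) :
    InLinearClass n F (similarityGroup f) := by
  have hev : Even n := by
    by_contra h
    exact no_symplectic_odd (Nat.not_even_iff_odd.1 h) f hf
  have h4 : 4 ≤ n := by
    obtain ⟨k, hk⟩ := hev
    omega
  exact Or.inr (Or.inr (Or.inr (Or.inr (Or.inr (Or.inr (Or.inr (Or.inr (Or.inr (Or.inl
    ⟨f, hf, hev, h4, rfl⟩)))))))))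

theorem quad_class [Fintype F] (h3 : 3 ≤ n) (hodd : Odd (Fintype.card F)) (Q : (Fin n → F) → F)
    (hQ : IsNondegenerateQuadraticForm Q) : InLinearClass n F (quadSimilarityGroup Q) :=
  Or.inr (Or.inr (Or.inr (Or.inr (Or.inr (Or.inr (Or.inr (Or.inr (Or.inr (Or.inr (Or.inr
    ⟨Q, hQ, hodd, h3, rfl⟩))))))))))

theorem tensor_class [Fintype F] (h3 : 3 ≤ n) {a b : ℕ} (ha : 2 ≤ a) (hb : 2 ≤ b)
    (e : Fin n ≃ Fin a × Fin b) (P : GL (Fin n) F) :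
    ∃ M : Subgroup (GL (Fin n) F), InLinearClass n F M ∧ tensorProductSubgroup a b e P ≤ M := by
  rcases lt_trichotomy a b with h | h | h
  · exact ⟨_, Or.inr (Or.inr (Or.inr (Or.inr (Or.inr (Or.inl ⟨a, b, e, P, ha, h, rfl⟩))))), le_refl _⟩
  · subst h
    by_cases h2 : a = 2
    · subst h2
      obtain ⟨Q, hQ, hle⟩ := tensor_two_two e P
      by_cases h2F : (2 : F) = 0
      · exact ⟨_, symp_class h3 _ (polar_symplectic h2F Q hQ), hle.trans (quadSim_le_polarSim Q)⟩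
      · exact ⟨_, quad_class h3 (odd_card_of_two_ne_zero h2F) Q hQ, hle⟩
    · exact ⟨_, Or.inr (Or.inr (Or.inr (Or.inr (Or.inr (Or.inr (Or.inr (Or.inr (Or.inl
        ⟨a, 2, _, P, by omega, le_refl 2, rfl⟩)))))))), tensor_le_wreath e P⟩
  · exact ⟨_, Or.inr (Or.inr (Or.inr (Or.inr (Or.inr (Or.inl ⟨b, a, _, P, hb, h, rfl⟩))))),
      tensor_swap e P⟩

theorem inClass_of_geoC [Fintype F] (h3 : 3 ≤ n) (H : Subgroup (GL (Fin n) F)) (h : InGeoC H) :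
    ∃ M : Subgroup (GL (Fin n) F), InLinearClass n F M ∧ H ≤ M := by
  rcases h with ⟨W, h0, h1, h2⟩ | ⟨t, m, D, h1, h2⟩ | ⟨r, A, h0, h1, h2⟩ | ⟨a, b, e, P, h0, h1, h2⟩ |
    ⟨F₀, r, P, h1, h2, h3'⟩ | ⟨h0, Q, h1, h2⟩ | ⟨f, h1, h2⟩ | ⟨σ, f, h1, h2⟩
  · exact ⟨_, Or.inl ⟨W, h0, h1, rfl⟩, h2⟩
  · exact ⟨_, Or.inr (Or.inr (Or.inr (Or.inl ⟨t, m, D, h1, rfl⟩))), h2⟩
  · exact ⟨_, Or.inr (Or.inr (Or.inr (Or.inr (Or.inl ⟨r, A, h0, h1, rfl⟩)))), h2⟩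
  · obtain ⟨M, hM, hle⟩ := tensor_class h3 h0 h1 e P
    exact ⟨M, hM, h2.trans hle⟩
  · exact ⟨_, Or.inr (Or.inr (Or.inr (Or.inr (Or.inr (Or.inr (Or.inl ⟨F₀, r, P, h1, h2, rfl⟩)))))), h3'⟩
  · exact ⟨_, quad_class h3 h0 Q h1, h2⟩
  · exact ⟨_, symp_class h3 f h1, h2⟩
  · exact ⟨_, Or.inr (Or.inr (Or.inr (Or.inr (Or.inr (Or.inr (Or.inr (Or.inr (Or.inr (Or.inr (Or.inl
      ⟨σ, f, h1, h3, rfl⟩)))))))))), h2⟩

theorem inClass_of_geoG [Fintype F] (h3 : 3 ≤ n) (H : Subgroup (GL (Fin n) F)) (h : InGeoG H) :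
    ∃ M : Subgroup (GL (Fin n) F), InLinearClass n F M ∧ H ≤ M := by
  rcases h with h | ⟨r, R, -, h1, h2⟩ | ⟨m, t, e, P, h0, h1, h2⟩
  · exact inClass_of_geoC h3 H h
  · exact ⟨_, Or.inr (Or.inr (Or.inr (Or.inr (Or.inr (Or.inr (Or.inr (Or.inl ⟨r, R, h1, rfl⟩))))))), h2⟩
  · exact ⟨_, Or.inr (Or.inr (Or.inr (Or.inr (Or.inr (Or.inr (Or.inr (Or.inr (Or.inl
      ⟨m, t, e, P, h0, h1, rfl⟩)))))))), h2⟩

theorem aschbacher [Fintype F] (h3 : 3 ≤ n) (H : Subgroup (GL (Fin n) F)) :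
    (∃ M : Subgroup (GL (Fin n) F), InLinearClass n F M ∧ H ≤ M) ∨ InLinearResidualClass H := by
  rcases mainG h3 H with h | h
  · exact Or.inl (inClass_of_geoG h3 H h)
  · exact Or.inr h

end Cfsg.Agent.Lib.Helper38.AschG
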