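import Cfsg.Agent.Lib.Helper38.AschG.STRUCT
import Cfsg.Agent.Lib.Helper77.AschG.CaseA
import Cfsg.Agent.Lib.Helper77.AschG.CaseB
import Cfsg.Agent.Lib.Helper5.AschC.FORMS
import Cfsg.Agent.Lib.Helper77.Asch.Main

/-! Ladder ASCHG: Aschbacher's theorem for subgroups of GL_n(q), general n ≥ 3. -/

set_option autoImplicit false

namespace Cfsg.Agent.Lib.Helper38.AschG

open Cfsg Cfsg.Geo Cfsg.Agent.Lib.Helper77.Asch Cfsg.Agent.Lib.Helper5.AschC
open scoped MatrixGroups Matrix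

variable {n : ℕ} {F : Type*} [Field F]

theorem mainG [Fintype F] (h3 : 3 ≤ n) (H : Subgroup (GL (Fin n) F)) :
    InGeoG H ∨ InLinearResidualClass H := by
  classical
  have hn : 0 < n := by omega
  have h2n : 2 ≤ n := by omega
  by_cases hirr : ActsIrreducibly (matrixSet H)
  swap
  · obtain ⟨W, h0, h1, hle⟩ := red H hirr
    exact Or.inl (Or.inl (Or.inl ⟨W, h0, h1, hle⟩))
  obtain ⟨Z, hZ⟩ : ∃ Z, Z = scalars (Fin n) F := ⟨_, rfl⟩
  have hZc : ∀ z ∈ Z, ∀ g : GL (Fin n) F, g * z = z * g := by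
    intro z hz g
    exact scalars_central z (hZ ▸ hz) g
  obtain ⟨Hh, hHh⟩ : ∃ Hh, Hh = H ⊔ Z := ⟨_, rfl⟩
  have hHle : H ≤ Hh := hHh ▸ le_sup_left
  have hZle : Z ≤ Hh := hHh ▸ le_sup_right
  have hirr' : ActsIrreducibly (matrixSet Hh) := irr_mono (matrixSet_mono hHle) hirr
  have hZlt : Z < Hh := by
    refine lt_of_le_of_ne hZle (fun h => ?_)
    exact not_irr_of_le_scalars h2n H (hZ ▸ h ▸ hHle) hirr
  obtain ⟨N, hm⟩ := exists_minOver Hh Z hZlt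
  suffices InGeoG Hh ∨ InLinearResidualClass H by
    rcases this with h | h
    · exact Or.inl (h.mono hHle)
    · exact Or.inr h
  rcases normal_casesG hn Hh N hm.norm hirr' with h | h | hNabs
  · exact Or.inl (Or.inl h)
  · exact absurd (hZ ▸ h) (not_le_of_gt hm.lt)
  by_cases hab : ⁅N, N⁆ ≤ Z
  · left
    exact Cfsg.Agent.Lib.Helper77.AschG.caseA h3 Hh N (hZ ▸ hm) (hZ ▸ hab) hNabs
  by_cases hsimple : ∀ M : Subgroup (GL (Fin n) F), Z ≤ M → M ≤ N → NormBy N M → M = Z ∨ M = N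
  swap
  · left
    subst hZ
    exact Cfsg.Agent.Lib.Helper77.AschG.caseB h3 Hh N hm hab hNabs hsimple
  obtain ⟨P, hP⟩ : ∃ P, P = ⁅N, N⁆ := ⟨_, rfl⟩
  obtain ⟨hperf, hPZ⟩ := perfect_core Hh Z N hZc hm hab
  rw [← hP] at hperf hPZ hab
  have hPnorm : NormBy Hh P := hP ▸ normBy_commutator hm.norm
  have hPN : P ≤ N := hPZ ▸ le_sup_left
  have hPle : P ≤ Hh := hPN.trans hm.le
  rcases normal_casesG hn Hh P hPnorm hirr' with h | h | hPabs
  · exact Or.inl (Or.inl h)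
  · exact absurd (hZ ▸ h) hab
  have hnormH : Hh ≤ subgroupNormalizer P := le_normalizer_of_normBy hPnorm
  by_cases hsub : ∃ F₀ : Subfield F, F₀ ≠ ⊤ ∧ RealisableOver F₀ (matrixSet P)
  · left
    obtain ⟨F₀, hF₀, B, hB⟩ := hsub
    obtain ⟨F₁, r, hle1, hr, hcard⟩ := exists_prime_subfield F₀ hF₀
    exact Or.inl (Or.inr (Or.inr (Or.inr (Or.inr (Or.inl ⟨F₁, r, B⁻¹, hr, hcard,
      hnormH.trans ((normalizer_le_subfield hn P hPabs F₀ B hB).trans (subfieldSubgroup_mono hle1 _))⟩)))))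
  by_cases hsy : ∃ f : (Fin n → F) → (Fin n → F) → F, IsSymplecticForm f ∧ FixesForm (matrixSet P) f
  · left
    obtain ⟨f, hf, hfix⟩ := hsy
    exact Or.inl (Or.inr (Or.inr (Or.inr (Or.inr (Or.inr (Or.inr (Or.inl ⟨f, hf,
      hnormH.trans (normalizer_le_sympSim P hPabs f hf hfix)⟩)))))))
  by_cases hq : ∃ Q : (Fin n → F) → F, IsNondegenerateQuadraticForm Q ∧ FixesQuadForm (matrixSet P) Q
  · obtain ⟨Q, hQ, hfix⟩ := hq
    by_cases h2F : (2 : F) = 0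
    · exact absurd ⟨_, polar_symplectic h2F Q hQ, polar_fixes _ Q hfix⟩ hsy
    · left
      exact Or.inl (Or.inr (Or.inr (Or.inr (Or.inr (Or.inr (Or.inl ⟨odd_card_of_two_ne_zero h2F, Q, hQ,
        hnormH.trans (normalizer_le_quadSim h2F P hPabs Q hQ hfix)⟩))))))
  by_cases hu : ∃ (σ : F ≃+* F) (f : (Fin n → F) → (Fin n → F) → F),
      IsUnitaryForm σ f ∧ FixesForm (matrixSet P) f
  · left
    obtain ⟨σ, f, hf, hfix⟩ := hu
    exact Or.inl (Or.inr (Or.inr (Or.inr (Or.inr (Or.inr (Or.inr (Or.inr ⟨σ, f, hf,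
      hnormH.trans (normalizer_le_unitarySim P hPabs σ f hf hfix)⟩)))))))
  right
  subst hZ
  refine ⟨P, ⟨?_, ?_, hperf, ?_, ?_, ?_, hPabs, ?_⟩, hq, hsy, hu⟩
  · calc P ≤ ⁅Hh, Hh⁆ := hP ▸ Subgroup.commutator_mono hm.le hm.le
      _ ≤ H := hHh ▸ commutator_sup_le H _ hZc
  · intro h hh x hx
    exact hPnorm h (hHle hh) x hx
  · exact simple_quot _ N P hPZ hm.lt hsimple
  · exact nonabelian_quot _ P (by rw [hperf]; exact hab)
  · intro h _ hx
    exact mem_scalars_of_commute hn P hPabs h (centralizes_of_perfect _ P hZc hperf h hx)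
  · intro F₀ hF₀ hr
    exact hsub ⟨F₀, hF₀, hr⟩

end Cfsg.Agent.Lib.Helper38.AschG
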