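import Cfsg.Agent.Lib.Helper38.AschG.MAIN
import Cfsg.Agent.Lib.Helper77.Asch.Final
import Cfsg.Agent.Lib.Helper5.AschC.DIM
import Cfsg.Agent.Lib.Helper5.AschC.DQ2
import Cfsg.Agent.Lib.Helper5.AschC.TQ2
import Cfsg.Agent.Lib.Helper5.AschC.SWAP
import Cfsg.Agent.Lib.Helper5.AschC.PRK
import Cfsg.Agent.Lib.Helper5.AschC.PRS
import Cfsg.Agent.Lib.Helper5.AschC.PRT

/-! Ladder ASCHG: the maximal subgroups of SL_8(q). -/

set_option autoImplicit false

namespace Cfsg.Agent.Lib.Helper38.AschG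

open Cfsg Cfsg.Geo Cfsg.Agent.Lib.Helper77.Asch Cfsg.Agent.Lib.Helper5.AschC
open scoped MatrixGroups Matrix

variable {F : Type*} [Field F]

theorem sl8_cases [Fintype F] (H : Subgroup (GL (Fin 8) F))
    (hH : IsMaximalIn (specialLinear (Fin 8) F) H) :
    (∃ W : Submodule F (Fin 8 → F), W ≠ ⊥ ∧ W ≠ ⊤ ∧ H = subspaceStabilizer W ⊓ specialLinear (Fin 8) F) ∨
    (5 ≤ Fintype.card F ∧ ∃ D : Fin 8 → Submodule F (Fin 8 → F), IsMDecomposition 1 D ∧
      H = decompositionStabilizer D ⊓ specialLinear (Fin 8) F) ∨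
    (3 ≤ Fintype.card F ∧ ∃ D : Fin 4 → Submodule F (Fin 8 → F), IsMDecomposition 2 D ∧
      H = decompositionStabilizer D ⊓ specialLinear (Fin 8) F) ∨
    (∃ D : Fin 2 → Submodule F (Fin 8 → F), IsMDecomposition 4 D ∧
      H = decompositionStabilizer D ⊓ specialLinear (Fin 8) F) ∨
    (∃ K : Subalgebra F (Matrix (Fin 8) (Fin 8) F), IsFieldSubalgebra 2 K ∧
      H = subalgebraNormalizer K ⊓ specialLinear (Fin 8) F) ∨
    (3 ≤ Fintype.card F ∧ ∃ (e : Fin 8 ≃ Fin 2 × Fin 4) (P : GL (Fin 8) F),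
      H = tensorProductSubgroup 2 4 e P ⊓ specialLinear (Fin 8) F) ∨
    (∃ (F₀ : Subfield F) (r : ℕ) (P : GL (Fin 8) F), r.Prime ∧ Fintype.card F = Nat.card F₀ ^ r ∧
      H = subfieldSubgroup F₀ P ⊓ specialLinear (Fin 8) F) ∨
    ((∃ p : ℕ, p.Prime ∧ Fintype.card F = p ∧ (p % 4 = 1)) ∧ ∃ R : Subgroup (GL (Fin 8) F),
      IsLinearSymplecticTypeData 2 R ∧ H = subgroupNormalizer R ⊓ specialLinear (Fin 8) F) ∨
    (Odd (Fintype.card F) ∧ ∃ Q : (Fin 8 → F) → F, IsNondegenerateQuadraticForm Q ∧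
      H = quadSimilarityGroup Q ⊓ specialLinear (Fin 8) F) ∨
    (∃ f : (Fin 8 → F) → (Fin 8 → F) → F, IsSymplecticForm f ∧
      H = similarityGroup f ⊓ specialLinear (Fin 8) F) ∨
    (∃ (σ : F ≃+* F) (f : (Fin 8 → F) → (Fin 8 → F) → F), IsUnitaryForm σ f ∧
      H = similarityGroup f ⊓ specialLinear (Fin 8) F) ∨
    InLinearResidualClass H := by
  have h3 : 3 ≤ 8 := by norm_num
  have hq1 : 1 < Fintype.card F := Fintype.one_lt_card
  have caseW : ∀ W : Submodule F (Fin 8 → F), W ≠ ⊥ → W ≠ ⊤ → H ≤ subspaceStabilizer W →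
      ∃ W : Submodule F (Fin 8 → F), W ≠ ⊥ ∧ W ≠ ⊤ ∧ H = subspaceStabilizer W ⊓ specialLinear (Fin 8) F :=
    fun W h0 h1 hle => ⟨W, h0, h1, eq_of_le hH hle (not_le_subspace W h0 h1)⟩
  have caseQ : ∀ Q : (Fin 8 → F) → F, IsNondegenerateQuadraticForm Q → H ≤ quadSimilarityGroup Q →
      ∃ Q : (Fin 8 → F) → F, IsNondegenerateQuadraticForm Q ∧
        H = quadSimilarityGroup Q ⊓ specialLinear (Fin 8) F :=
    fun Q hQ hle => ⟨Q, hQ, eq_of_le hH hle (not_le_quadSim h3 Q hQ)⟩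
  have caseU : ∀ (σ : F ≃+* F) (f : (Fin 8 → F) → (Fin 8 → F) → F), IsUnitaryForm σ f →
      H ≤ similarityGroup f → ∃ (σ : F ≃+* F) (f : (Fin 8 → F) → (Fin 8 → F) → F), IsUnitaryForm σ f ∧
        H = similarityGroup f ⊓ specialLinear (Fin 8) F :=
    fun σ f hf hle => ⟨σ, f, hf, eq_of_le hH hle (not_le_unitarySim h3 σ f hf)⟩
  have caseS : ∀ (f : (Fin 8 → F) → (Fin 8 → F) → F), IsSymplecticForm f →
      H ≤ similarityGroup f → ∃ (f : (Fin 8 → F) → (Fin 8 → F) → F), IsSymplecticForm f ∧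
        H = similarityGroup f ⊓ specialLinear (Fin 8) F :=
    fun f hf hle => ⟨f, hf, eq_of_le hH hle (not_le_sympSim h3 f hf)⟩
  have caseK : ∀ K : Subalgebra F (Matrix (Fin 8) (Fin 8) F), IsFieldSubalgebra 2 K →
      H ≤ subalgebraNormalizer K → ∃ K : Subalgebra F (Matrix (Fin 8) (Fin 8) F), IsFieldSubalgebra 2 K ∧
        H = subalgebraNormalizer K ⊓ specialLinear (Fin 8) F :=
    fun K hK hle => ⟨K, hK, eq_of_le hH hle (not_le_fieldNormalizer' h3 2 (by norm_num) K hK)⟩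
  have caseT : ∀ (e : Fin 8 ≃ Fin 2 × Fin 4) (P : GL (Fin 8) F), H ≤ tensorProductSubgroup 2 4 e P →
      (∃ K : Subalgebra F (Matrix (Fin 8) (Fin 8) F), IsFieldSubalgebra 2 K ∧
        H = subalgebraNormalizer K ⊓ specialLinear (Fin 8) F) ∨
      (3 ≤ Fintype.card F ∧ ∃ (e : Fin 8 ≃ Fin 2 × Fin 4) (P : GL (Fin 8) F),
        H = tensorProductSubgroup 2 4 e P ⊓ specialLinear (Fin 8) F) := by
    intro e P hle
    by_cases hq : 3 ≤ Fintype.card F
    · exact Or.inr ⟨hq, e, P, eq_of_le hH hle (not_le_tensor (le_refl 2) (by norm_num) e P)⟩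
    · obtain ⟨K, hK, hle'⟩ := tensor_two (by norm_num) (by omega) e P
      exact Or.inl (caseK K hK (hle.trans hle'))
  rcases mainG h3 H with hgeo | hres
  swap
  · exact Or.inr (Or.inr (Or.inr (Or.inr (Or.inr (Or.inr (Or.inr (Or.inr (Or.inr (Or.inr (Or.inr hres))))))))))
  rcases hgeo with hC | ⟨r, R, hr8, hR, hle⟩ | ⟨m, t, e, P, hm, ht, -⟩
  · rcases hC with ⟨W, h0, h1, hle⟩ | ⟨t, m, D, hD, hle⟩ | ⟨r, K, hr, hK, hle⟩ | ⟨a, b, e, P, ha, hb, hle⟩ |
      ⟨F₀, r, P, hr, hc, hle⟩ | ⟨ho, Q, hQ, hle⟩ | ⟨f, hf, hle⟩ | ⟨σ, f, hf, hle⟩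
    · exact Or.inl (caseW W h0 h1 hle)
    · have hdim := decomp_dim D hD
      have ht2 := hD.two_le
      have hm0 := hD.pos
      have ht8 : t ≤ 8 := by nlinarith
      have hnot := not_le_decomp D hD
      interval_cases t
      · obtain rfl : m = 4 := by omega
        exact Or.inr (Or.inr (Or.inr (Or.inl ⟨D, hD, eq_of_le hH hle hnot⟩)))
      · omega
      · obtain rfl : m = 2 := by omega
        by_cases hq : 3 ≤ Fintype.card F
        · exact Or.inr (Or.inr (Or.inl ⟨hq, D, hD, eq_of_le hH hle hnot⟩))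
        · obtain ⟨f, hf, hle'⟩ := decomp_two_two (by omega) D hD
          exact Or.inr (Or.inr (Or.inr (Or.inr (Or.inr (Or.inr (Or.inr (Or.inr (Or.inr (Or.inl
            (caseS f hf (hle.trans hle')))))))))))
      · omega
      · omega
      · omega
      · obtain rfl : m = 1 := by omega
        by_cases h5 : 5 ≤ Fintype.card F
        · exact Or.inr (Or.inl ⟨h5, D, hD, eq_of_le hH hle hnot⟩)
        · have hq : Fintype.card F = 2 ∨ Fintype.card F = 3 ∨ Fintype.card F = 4 := by omega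
          rcases hq with hq | hq | hq
          · obtain ⟨W, h0, h1, hW⟩ := decomp_two (by norm_num) hq D hD
            exact Or.inl (caseW W h0 h1 (hle.trans hW))
          · obtain ⟨Q, hQ, hle'⟩ := decomp_three hq D hD
            exact Or.inr (Or.inr (Or.inr (Or.inr (Or.inr (Or.inr (Or.inr (Or.inr (Or.inl ⟨by rw [hq]; decide,
              caseQ Q hQ (hle.trans hle')⟩))))))))
          · obtain ⟨σ, f, hf, hle'⟩ := decomp_four hq D hD
            exact Or.inr (Or.inr (Or.inr (Or.inr (Or.inr (Or.inr (Or.inr (Or.inr (Or.inr (Or.inr (Or.inl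
              (caseU σ f hf (hle.trans hle'))))))))))))
    · have hdvd : r ∣ 2 ^ 3 := deg_dvd (by norm_num) r K hK
      obtain rfl : r = 2 := (Nat.prime_dvd_prime_iff_eq hr Nat.prime_two).1 (hr.dvd_of_dvd_pow hdvd)
      exact Or.inr (Or.inr (Or.inr (Or.inr (Or.inl (caseK K hK hle)))))
    · have hcard : 8 = a * b := by
        have := Fintype.card_congr e
        simpa using this
      have ha8 : a ≤ 4 := by nlinarith
      have key : (∃ K : Subalgebra F (Matrix (Fin 8) (Fin 8) F), IsFieldSubalgebra 2 K ∧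
          H = subalgebraNormalizer K ⊓ specialLinear (Fin 8) F) ∨
        (3 ≤ Fintype.card F ∧ ∃ (e : Fin 8 ≃ Fin 2 × Fin 4) (P : GL (Fin 8) F),
          H = tensorProductSubgroup 2 4 e P ⊓ specialLinear (Fin 8) F) := by
        interval_cases a
        · obtain rfl : b = 4 := by omega
          exact caseT e P hle
        · omega
        · obtain rfl : b = 2 := by omega
          exact caseT _ P (hle.trans (tensor_swap e P))
      rcases key with h | h
      · exact Or.inr (Or.inr (Or.inr (Or.inr (Or.inl h))))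
      · exact Or.inr (Or.inr (Or.inr (Or.inr (Or.inr (Or.inl h)))))
    · exact Or.inr (Or.inr (Or.inr (Or.inr (Or.inr (Or.inr (Or.inl ⟨F₀, r, P, hr, hc,
        eq_of_le hH hle (not_le_subfield (by norm_num) F₀ (subfield_ne_top F₀ r hr hc) P)⟩))))))
    · exact Or.inr (Or.inr (Or.inr (Or.inr (Or.inr (Or.inr (Or.inr (Or.inr (Or.inl ⟨ho, caseQ Q hQ hle⟩))))))))
    · exact Or.inr (Or.inr (Or.inr (Or.inr (Or.inr (Or.inr (Or.inr (Or.inr (Or.inr (Or.inl
        (caseS f hf hle))))))))))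
    · exact Or.inr (Or.inr (Or.inr (Or.inr (Or.inr (Or.inr (Or.inr (Or.inr (Or.inr (Or.inr (Or.inl
        (caseU σ f hf hle)))))))))))
  · have hrp := hR.symplecticType.prime
    have hdvd : r ∣ 2 ^ 3 := hr8
    obtain rfl : r = 2 := (Nat.prime_dvd_prime_iff_eq hrp Nat.prime_two).1 (hrp.dvd_of_dvd_pow hdvd)
    obtain ⟨p, e, hnp, ⟨hp, hch, hcard, hdvd', -⟩, hcase⟩ := hR.field
    have hns : ¬ R ≤ scalars (Fin 8) F := fun h => not_irr_of_le_scalars (by norm_num) R h hR.absIrred.1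
    rcases hcase with ⟨ho, -⟩ | ⟨-, he, hz, -⟩ | ⟨-, -, h2, -⟩
    · exact absurd ho (by decide)
    · subst he
      rw [hz, pow_one] at hdvd'
      rw [pow_one] at hcard
      have hp2 := hp.two_le
      refine Or.inr (Or.inr (Or.inr (Or.inr (Or.inr (Or.inr (Or.inr (Or.inl ⟨⟨p, hp, hcard, by omega⟩, R, hR,
        eq_of_le hH hle (not_le_normalizer h3 2 p hp Nat.prime_two hnp R hR.symplecticType.pGroup hns)⟩)))))))
    · simp at h2
  · exfalso
    have hcard : 8 = m ^ t := by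
      have := Fintype.card_congr e
      simpa using this
    have h1 : m ^ 2 ≤ m ^ t := Nat.pow_le_pow_right (by omega) ht
    nlinarith

end Cfsg.Agent.Lib.Helper38.AschG
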