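import Cfsg.Agent.Lib.Helper38.AschG.Defs
import Cfsg.Agent.Lib.Helper5.AschC.MINI
import Cfsg.Agent.Lib.Helper5.AschC.ORB1
import Cfsg.Agent.Lib.Helper5.AschC.ORB2
import Cfsg.Agent.Lib.Helper5.AschC.IDF
import Cfsg.Agent.Lib.Helper5.AschC.CENF
import Cfsg.Agent.Lib.Helper5.AschC.DENS
import Cfsg.Agent.Lib.Helper5.AschC.FLD
import Cfsg.Agent.Lib.Helper5.AschC.TENS
import Cfsg.Agent.Lib.Helper5.AschC.NTEN
import Cfsg.Agent.Lib.Helper5.AschC.EXT
import Cfsg.Agent.Lib.Helper5.AschC.NRM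

/-! Ladder ASCHG: the structure theorem for a normal subgroup of an irreducible group (general n),
assembled from helper5's ASCHC rungs. -/

set_option autoImplicit false

namespace Cfsg.Agent.Lib.Helper38.AschG

open Cfsg Cfsg.Geo Cfsg.Agent.Lib.Helper77.Asch Cfsg.Agent.Lib.Helper5.AschC
open scoped MatrixGroups Matrix

variable {n : ℕ} {F : Type*} [Field F]

theorem normal_casesG [Fintype F] (hn : 0 < n) (G N : Subgroup (GL (Fin n) F))
    (hnorm : NormBy G N) (hG : ActsIrreducibly (matrixSet G)) :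
    InGeoC G ∨ N ≤ scalars (Fin n) F ∨ ActsAbsolutelyIrreducibly (matrixSet N) := by
  classical
  have hA : G ≤ subalgebraNormalizer (spanAlg N) := spanAlg_norm G N hnorm
  obtain ⟨I, hI⟩ := exists_minIdl hn (spanAlg N)
  by_cases hinv : ∀ g ∈ G, ∀ x ∈ I, conjA g x ∈ I
  swap
  · obtain ⟨t, J, ht, hne, hmul, hperm, htrans⟩ := orbit_family G (spanAlg N) hA I hI hinv
    obtain ⟨m, D, hD, hle⟩ := decomp_of_family hn G hG J ht hne hmul hperm htrans
    exact Or.inl (Or.inr (Or.inl ⟨t, m, D, hD, hle⟩))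
  obtain ⟨U, hU⟩ := ideal_faith hn G hG (spanAlg N) hA I hI hinv
  have hfield := cen_field (spanAlg N) U hU
  by_cases hd : Module.finrank F (cen (spanAlg N)) = 1
  swap
  · have hpos : 0 < Module.finrank F (cen (spanAlg N)) := by
      have : Nonempty (Fin n) := ⟨⟨0, hn⟩⟩
      exact Module.finrank_pos
    obtain ⟨r, K', hr, hK', hle⟩ := exists_prime_subfieldAlg _ (by omega) _ hfield
    exact Or.inl (Or.inr (Or.inr (Or.inl ⟨r, K', hr, hK', (hA.trans (cen_norm _)).trans hle⟩)))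
  obtain ⟨a, φ, ha, hφ⟩ := dens (spanAlg N) U hU hd
  obtain ⟨b, e, P, hkr⟩ := tens ha φ
  have hcard : n = a * b := by
    have := Fintype.card_congr e
    simpa using this
  by_cases ha1 : a = 1
  · subst ha1
    exact Or.inr (Or.inl (le_scalars_of_range hn φ N hφ))
  by_cases hb1 : b = 1
  · subst hb1
    have : a = n := by omega
    subst this
    exact Or.inr (Or.inr (absIrr_of_range hn φ N hφ))
  have hb0 : b ≠ 0 := by
    rintro rfl
    omega
  left
  refine Or.inr (Or.inr (Or.inr (Or.inl ⟨a, b, e, P, by omega, by omega, ?_⟩)))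
  have := ntens hn e P φ hkr
  rw [hφ] at this
  exact hA.trans this

end Cfsg.Agent.Lib.Helper38.AschG
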